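import Cfsg.Agent.Loc.GC1
import Cfsg.Agent.BG.B7

/-! Transvections on an elementary abelian `2`-group. -/

set_option autoImplicit false
set_option linter.unusedSectionVars false

namespace CF.Qu.E3

open Cfsg Subgroup CF.Loc CF.FF
open scoped commutatorElement

universe u

theorem rk3 {G : Type*} [Group G] [Finite G] {O H C D : Subgroup G} {p : ℕ} {x y z : G} (hp : p.Prime) (p2 : p ≠ 2)
    (o : IsPGroup 2 O) (n : H ≤ 𝐍(O)) (hx : x ∈ H) (hy : y ∈ H) (hz : z ∈ H) (px : x ^ p ∈ O) (py : y ^ p ∈ O)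
    (pz : z ^ p ∈ O) (xy : ⁅x, y⁆ ∈ O) (xz : ⁅x, z⁆ ∈ O) (yz : ⁅y, z⁆ ∈ O) (z0 : z ∉ O) (OC : O ≤ C) (zC : z ∈ C)
    (yC : y ∉ C) (OD : O ≤ D) (zD : z ∈ D) (yD : y ∈ D) (xD : x ∉ D) : 3 ≤ BG.pRank p H := by
  rw [← BG.pRank_qt n ((BG.piGrp_of_isPGroup Nat.prime_two o).of_single_ne (Ne.symm p2))]
  have e : ∀ {a}, a ∈ H → a ^ p ∈ O → a ∉ O → BG.Elem p 1 (BG.qt O (zpowers a)) (BG.qt O H) := fun a b c => by
    rw [BG.qt_zpowers (n a)]
    exact BG.elem_zpowers' hp (BG.qe_mem_qt a (n a)) (by rw [← BG.qe_pow (n a), BG.qe_of_mem b]) (mt (BG.qe_eq_one (n a)).1 c)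
  have c : ∀ {a b}, a ∈ H → b ∈ H → ⁅a, b⁆ ∈ O → BG.qt O (zpowers a) ≤ 𝐂(BG.qt O (zpowers b)) := fun {a b} ha hb k => by
    rw [BG.qt_zpowers (n ha), BG.qt_zpowers (n hb), zpowers_le, centralizer_zpowers, mem_centralizer_singleton_iff,
      ← commutatorElement_eq_one_iff_mul_comm, ← BG.qe_comm (n ha) (n hb), BG.qe_of_mem k]
  have nz : ∀ {a}, a ∈ H → zpowers a ≤ 𝐍(O) := fun a => zpowers_le.2 (n a)
  refine (((e hz pz z0).sup_one (e hy py fun k => yC (OC k)) (c hy hz yz) fun k => yC ?_).sup_one (e hx px fun k => xD (OD k))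
    (by rw [centralizer_sup]; exact le_inf (c hx hz xz) (c hx hy xy)) fun k => xD ?_).le_pRank
  · exact sup_le OC (zpowers_le.2 zC) ((BG.qt_le_qt_iff (nz hy) (nz hz)).1 k (mem_zpowers y))
  · rw [← BG.qt_sup (nz hz) (nz hy)] at k
    exact sup_le OD (sup_le (zpowers_le.2 zD) (zpowers_le.2 yD))
      ((BG.qt_le_qt_iff (nz hx) (sup_le (nz hz) (nz hy))).1 k (mem_zpowers x))

section
variable {X V : Type*} [Group X] [AddCommGroup V] [Module (ZMod 2) V] {f : X →* Module.End (ZMod 2) V}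
  {a a' a'' b b' b'' g k : X} {c c' c'' d d' d'' : V} {φ φ' φ'' χ χ' χ'' : V →ₗ[ZMod 2] ZMod 2}

/-- `g` acts as the transvection with centre `c` and form `φ` -/
structure Tv (f : X →* Module.End (ZMod 2) V) (g : X) (c : V) (φ : V →ₗ[ZMod 2] ZMod 2) : Prop where
  act : ∀ v, f g v = v + φ v • c
  zero : φ c = 0

theorem two (v : V) : v + v = 0 := by rw [← two_smul (ZMod 2) v, show (2 : ZMod 2) = 0 from rfl, zero_smul]

theorem two' (u v : V) : u + v + v = u := by rw [add_assoc, two, add_zero]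

theorem fm (v : V) : f (g * k) v = f g (f k v) := by rw [map_mul]; rfl

namespace Tv

theorem sq (h : Tv f g c φ) (v : V) : f g (f g v) = v := by
  rw [h.act, h.act, map_add, map_smul, h.zero, smul_zero, add_zero, two']

theorem inv (h : Tv f g c φ) (v : V) : f g⁻¹ v = f g v := by
  conv_lhs => rw [← h.sq v, ← fm, inv_mul_cancel, map_one]
  rfl

theorem conj (h : Tv f g c φ) (h' : Tv f k d χ) : Tv f (g * k * g⁻¹) (d + φ d • c) (χ + χ c • φ) := by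
  refine ⟨fun v => ?_, ?_⟩
  · rw [fm, fm, h.inv, h'.act, map_add, h.sq, map_smul, h.act, h.act d]
    simp [mul_comm]
  · simp [h.zero, h'.zero, mul_comm, two]

theorem c11 (h : Tv f g c φ) (h' : Tv f k d χ) (e : φ d = 1) (e' : χ c = 1) : Tv f (g * k * g⁻¹) (d + c) (χ + φ) := by
  simpa [e, e'] using h.conj h'

theorem c10 (h : Tv f g c φ) (h' : Tv f k d χ) (e : φ d = 1) (e' : χ c = 0) : Tv f (g * k * g⁻¹) (d + c) χ := by
  simpa [e, e'] using h.conj h'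

theorem c01 (h : Tv f g c φ) (h' : Tv f k d χ) (e : φ d = 0) (e' : χ c = 1) : Tv f (g * k * g⁻¹) d (χ + φ) := by
  simpa [e, e'] using h.conj h'

theorem c00 (h : Tv f g c φ) (h' : Tv f k d χ) (e : φ d = 0) (e' : χ c = 0) : Tv f (g * k * g⁻¹) d χ := by
  simpa [e, e'] using h.conj h'

theorem mul (h : Tv f g c φ) (h' : Tv f k c χ) : Tv f (g * k) c (φ + χ) :=
  ⟨fun v => by rw [fm, h'.act, h.act, map_add, map_smul, h.zero, smul_zero, add_zero, add_assoc, ← add_smul, add_comm (χ v)]; rfl,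
    by simp [h.zero, h'.zero]⟩

theorem of (h : Tv f g c φ) (e : c = d) (e' : φ = χ) : Tv f g d χ := e ▸ e' ▸ h

theorem ker (h : Tv f g c φ) (h' : Tv f k c φ) : g * k⁻¹ ∈ f.ker :=
  LinearMap.ext fun v => by rw [fm, h'.inv, h'.act, ← h.act, h.sq]; rfl

end Tv

/-- two transvections generating `S₃` -/
structure Pr (f : X →* Module.End (ZMod 2) V) (a b : X) (c d : V) (φ χ : V →ₗ[ZMod 2] ZMod 2) : Prop where
  ta : Tv f a c φ
  tb : Tv f b d χ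
  e : φ d = 1
  e' : χ c = 1

/-- the forms vanish on the vectors -/
structure Og (φ χ : V →ₗ[ZMod 2] ZMod 2) (c d : V) : Prop where
  a : φ c = 0
  b : φ d = 0
  c : χ c = 0
  d : χ d = 0

/-- the stabilizer of a vector -/
def stb (f : X →* Module.End (ZMod 2) V) (v : V) : Subgroup X where
  carrier := {g | f g v = v}
  one_mem' := by simp
  mul_mem' := fun {a b} ha hb => (fm v).trans ((congrArg _ hb).trans ha)
  inv_mem' := fun {a} ha => by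
    have : f a⁻¹ (f a v) = v := by rw [← fm, inv_mul_cancel, map_one]; rfl
    rwa [show f a v = v from ha] at this

theorem ker_le (v : V) : f.ker ≤ stb f v := fun _ h => LinearMap.congr_fun h v

namespace Pr
variable (h : Pr f a b c d φ χ)
include h

theorem cube : (a * b) ^ 3 ∈ f.ker := by
  have := (h.ta.c11 h.tb h.e h.e').ker ((h.tb.c11 h.ta h.e' h.e).of (add_comm _ _) (add_comm _ _))
  refine LinearMap.ext fun v => Eq.trans ?_ (LinearMap.congr_fun this v)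
  simp only [pow_succ, pow_zero, one_mul, mul_inv_rev, inv_inv, fm, h.ta.inv, h.tb.inv]

theorem fix (o : Og φ χ c' d') : a * b ∈ stb f c' := by
  show f (a * b) c' = c'
  rw [fm, h.tb.act, o.c, zero_smul, add_zero, h.ta.act, o.a, zero_smul, add_zero]

theorem nfix : a * b ∉ stb f c := fun e => by
  have e : f (a * b) c = c := e
  have := congrArg φ e
  rw [fm, h.tb.act, h.e', one_smul, h.ta.act] at this
  simp [h.ta.zero, h.e] at this

theorem comm (h' : Pr f a' b' c' d' φ' χ') (o : Og φ χ c' d') (o' : Og φ' χ' c d) : ⁅a * b, a' * b'⁆ ∈ f.ker := by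
  rw [MonoidHom.mem_ker, commutatorElement_def, mul_assoc, mul_assoc, ← mul_inv_rev, ← mul_assoc, map_mul,
    show f (a * b * (a' * b')) = f (a' * b' * (a * b)) from LinearMap.ext fun v => ?_, ← map_mul, mul_inv_cancel, map_one]
  simp only [fm, h.ta.act, h.tb.act, h'.ta.act, h'.tb.act, map_add, map_smul, o.a, o.b, o.c, o.d, o'.a, o'.b, o'.c, o'.d,
    smul_zero, add_zero, zero_smul]
  abel

theorem three [Finite X] (p : IsPGroup 2 f.ker) (h' : Pr f a' b' c' d' φ' χ') (h'' : Pr f a'' b'' c'' d'' φ'' χ'')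
    (o1 : Og φ χ c' d') (o2 : Og φ' χ' c d) (o3 : Og φ χ c'' d'') (o4 : Og φ'' χ'' c d) (o5 : Og φ' χ' c'' d'')
    (o6 : Og φ'' χ'' c' d') : 3 ≤ BG.pRank 3 (⊤ : Subgroup X) :=
  rk3 Nat.prime_three (by omega) p (le_normalizer_of_normal' _ _) (mem_top _) (mem_top _) (mem_top _) h.cube h'.cube h''.cube
    (h.comm h' o1 o2) (h.comm h'' o3 o4) (h'.comm h'' o5 o6) (fun e => h''.nfix (ker_le _ e)) (ker_le c') (h''.fix o6) h'.nfix
    (ker_le c) (h''.fix o4) (h'.fix o2) h.nfix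

end Pr

theorem oo : (1 : ZMod 2) + 1 = 0 := rfl

variable {ι : Type*} [DecidableEq ι] {τ ρ : ι → X} {z w : ι → V} {ψ ω : ι → V →ₗ[ZMod 2] ZMod 2} {i j l r : ι}

/-- commuting transvections, each with a partner -/
structure Lm (f : X →* Module.End (ZMod 2) V) (τ ρ : ι → X) (z w : ι → V) (ψ ω : ι → V →ₗ[ZMod 2] ZMod 2) : Prop where
  tt : ∀ i, Tv f (τ i) (z i) (ψ i)
  tr : ∀ i, Tv f (ρ i) (w i) (ω i)
  pz : ∀ i j, ψ i (z j) = 0
  pw : ∀ i, ψ i (w i) = 1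
  pw' : ∀ {i j}, i ≠ j → ψ i (w j) = 0
  oz : ∀ i, ω i (z i) = 1
  oz' : ∀ {i j}, i ≠ j → ω i (z j) = 0

theorem Tv.cj_eq (h : Tv f (g * a * g⁻¹) c φ) (h' : Tv f a c φ) (k : X) : f (k * g * a * (k * g)⁻¹) = f (k * a * k⁻¹) := by
  have e : f (g * a * g⁻¹) = f a := LinearMap.ext fun v => (h.act v).trans (h'.act v).symm
  rw [show k * g * a * (k * g)⁻¹ = k * (g * a * g⁻¹) * k⁻¹ by group, map_mul, map_mul, e, ← map_mul, ← map_mul]

theorem Tv.congr (h : Tv f g c φ) (e : f k = f g) : Tv f k c φ := ⟨fun v => e ▸ h.act v, h.zero⟩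

namespace Lm
variable (h : Lm f τ ρ z w ψ ω)
include h

theorem ow (i : ι) : ω i (w i) = 0 := (h.tr i).zero

theorem pr (i : ι) : Pr f (τ i) (ρ i) (z i) (w i) (ψ i) (ω i) := ⟨h.tt i, h.tr i, h.pw i, h.oz i⟩

theorem og (n : i ≠ j) (e : ω i (w j) = 0) : Og (ψ i) (ω i) (z j) (w j) := ⟨h.pz i j, h.pw' n, h.oz' n, e⟩

theorem theta (n : i ≠ j) (e : ω i (w j) = 1) (e' : ω j (w i) = 0) : ∃ θ, Tv f θ (z i) (ψ j) := by
  have n' := n.symm
  have a := ((h.tr j).c01 (h.tr i) e' e).mul (((h.tt j).c11 (h.tr j) (h.pw j) (h.oz j)).c01 (h.tr i)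
    (by simp [e', h.pw' n']) (by simp [e, h.oz' n]))
  refine ⟨_, (((h.tt i).c11 (h.tr i) (h.pw i) (h.oz i)).c10 a (by simp [h.ow, h.pw]) (by
    simp [h.ow, h.oz, h.oz' n', h.pz, h.pw' n', e', oo])).of ?_ ?_⟩
  · rw [← add_assoc, two, zero_add]
  · rw [← add_assoc (ω i), ← add_assoc, two, zero_add]

theorem sigma (n : i ≠ j) (e : ω i (w j) = 1) (e' : ω j (w i) = 1) :
    ∃ σ, ∀ k, Tv f (σ * τ k * σ⁻¹) (z (Equiv.swap i j k)) (ψ (Equiv.swap i j k)) := by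
  have n' := n.symm
  have a := (h.tr i).c11 (h.tr j) e e'
  have b := (h.tt i).c11 ((h.tt j).c11 a (by simp [h.pw, h.pw' n']) (by simp [h.oz, h.oz' n]))
    (by simp [h.pw, h.pw' n, h.pz]) (by simp [h.oz, h.oz' n', h.pz])
  generalize τ i * _ * _ = β at b
  generalize ρ i * _ * _ = α at a
  refine ⟨α * β, fun k => ?_⟩
  rw [show α * β * τ k * (α * β)⁻¹ = α * (β * τ k * β⁻¹) * α⁻¹ by group]
  by_cases k1 : k = i
  · subst k1
    rw [Equiv.swap_apply_left]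
    refine (a.c11 (b.c11 (h.tt k) (by simp [h.oz, h.oz' n', h.pz]) (by simp [h.pw, h.pw' n, h.pz]))
      (by simp [h.oz, h.oz' n', h.oz' n, h.ow, e, e', oo]) (by simp [h.pw, h.pw' n, h.pw' n', h.ow, e, e', oo])).of ?_ ?_
    · linear_combination (norm := abel) two (z k) + two (w k) + two (w j)
    · linear_combination (norm := abel) two (ψ k) + two (ω k) + two (ω j)
  by_cases k2 : k = j
  · subst k2
    rw [Equiv.swap_apply_right]
    refine (a.c11 (b.c11 (h.tt k) (by simp [h.oz, h.oz' n, h.pz]) (by simp [h.pw, h.pw' n', h.pz]))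
      (by simp [h.oz, h.oz' n', h.oz' n, h.ow, e, e', oo]) (by simp [h.pw, h.pw' n, h.pw' n', h.ow, e, e', oo])).of ?_ ?_
    · linear_combination (norm := abel) two (z k) + two (w k) + two (w i)
    · linear_combination (norm := abel) two (ψ k) + two (ω k) + two (ω i)
  rw [Equiv.swap_apply_of_ne_of_ne k1 k2]
  exact a.c00 (b.c00 (h.tt k) (by simp [h.oz' (Ne.symm k1), h.oz' (Ne.symm k2), h.pz]) (by simp [h.pw' k1, h.pw' k2, h.pz]))
    (by simp [h.oz' (Ne.symm k1), h.oz' (Ne.symm k2)]) (by simp [h.pw' k1, h.pw' k2])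

variable [Finite X] (p : IsPGroup 2 f.ker) (ij : i ≠ j) (il : i ≠ l) (jl : j ≠ l)
include p ij il jl

theorem n3 (e1 : ω i (w j) = 0) (e2 : ω j (w i) = 0) (e3 : ω i (w l) = 0) (e4 : ω l (w i) = 0) (e5 : ω j (w l) = 0)
    (e6 : ω l (w j) = 0) : 3 ≤ BG.pRank 3 (⊤ : Subgroup X) :=
  (h.pr i).three p (h.pr j) (h.pr l) (h.og ij e1) (h.og ij.symm e2) (h.og il e3) (h.og il.symm e4) (h.og jl e5) (h.og jl.symm e6)

variable (ir : i ≠ r) (jr : j ≠ r) (lr : l ≠ r) (e1 : ω i (w j) = 1) (e2 : ω j (w i) = 1) (e3 : ω i (w l) = 1)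
  (e4 : ω l (w i) = 1) (e5 : ω j (w l) = 1) (e6 : ω l (w j) = 1)
include ir jr lr e1 e2 e3 e4 e5 e6

theorem k31 (f1 : ω i (w r) = 0) (f2 : ω r (w i) = 0) (f3 : ω j (w r) = 0) (f4 : ω r (w j) = 0) (f5 : ω l (w r) = 0)
    (f6 : ω r (w l) = 0) : 3 ≤ BG.pRank 3 (⊤ : Subgroup X) :=
  (h.pr i).three p ⟨h.tt j, (h.tr l).c11 (h.tr j) e6 e5, by simp [h.pw, h.pw' jl], by simp [h.oz, h.oz' jl.symm]⟩ (h.pr r)
    ⟨h.pz .., by simp [h.pw' ij, h.pw' il], h.oz' ij, by simp [e1, e3, oo]⟩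
    ⟨h.pz .., h.pw' ij.symm, by simp [h.oz' ij.symm, h.oz' il.symm], by simp [e2, e4, oo]⟩ (h.og ir f1) (h.og ir.symm f2)
    ⟨h.pz .., h.pw' jr, by simp [h.oz' jr, h.oz' lr], by simp [f3, f5]⟩
    ⟨h.pz .., by simp [h.pw' jr.symm, h.pw' lr.symm], h.oz' jr.symm, by simp [f4, f6]⟩

theorem k4 (f1 : ω i (w r) = 1) (f2 : ω r (w i) = 1) (f3 : ω j (w r) = 1) (f4 : ω r (w j) = 1) (f5 : ω l (w r) = 1)
    (f6 : ω r (w l) = 1) : 3 ≤ BG.pRank 3 (⊤ : Subgroup X) :=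
  (h.pr i).three p ⟨h.tt j, (h.tr l).c11 (h.tr j) e6 e5, by simp [h.pw, h.pw' jl], by simp [h.oz, h.oz' jl.symm]⟩
    ⟨h.tt r, ((h.tt l).c11 (h.tr l) (h.pw l) (h.oz l)).c11 (h.tr r) (by simp [f5, h.pw' lr]) (by simp [f6, h.oz' lr.symm]),
      by simp [h.pw, h.pw' lr.symm, h.pz], by simp [h.oz, h.oz' lr, h.pz]⟩
    ⟨h.pz .., by simp [h.pw' ij, h.pw' il], h.oz' ij, by simp [e1, e3, oo]⟩
    ⟨h.pz .., h.pw' ij.symm, by simp [h.oz' ij.symm, h.oz' il.symm], by simp [e2, e4, oo]⟩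
    ⟨h.pz .., by simp [h.pw' ir, h.pw' il, h.pz], h.oz' ir, by simp [f1, e3, h.oz' il, oo]⟩
    ⟨h.pz .., h.pw' ir.symm, by simp [h.oz' ir.symm, h.oz' il.symm, h.pz], by simp [f2, e4, h.pw' il.symm, oo]⟩
    ⟨h.pz .., by simp [h.pw' jr, h.pw' jl, h.pz], by simp [h.oz' jr, h.oz' lr], by simp [f3, f5, e5, h.ow, h.oz, h.oz' jl, oo]⟩
    ⟨h.pz .., by simp [h.pw' jr.symm, h.pw' lr.symm], by simp [h.oz' jr.symm, h.oz' jl.symm, h.pz],
      by simp [f4, f6, e6, h.ow, h.pw, h.pw' jl.symm, oo]⟩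

end Lm
end

variable {G : Type*} [Group G] {A : Subgroup G} {a b c d g k v : G}

/-- a linear model of the action of `N(A)` on `A` -/
structure Md (A : Subgroup G) {V : Type*} [AddCommGroup V] [Module (ZMod 2) V] (f : 𝐍(A) →* Module.End (ZMod 2) V)
    (e : G → V) : Prop where
  mul : ∀ a ∈ A, ∀ b ∈ A, e (a * b) = e a + e b
  inj : ∀ a ∈ A, ∀ b ∈ A, e a = e b → a = b
  srj : ∀ v, ∃ a ∈ A, e a = v
  conj : ∀ (g : 𝐍(A)), ∀ a ∈ A, e (g * a * g⁻¹) = f g (e a)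

theorem exists_md {G : Type u} [Group G] {A : Subgroup G} (h : IsElementaryAbelian 2 A) :
    ∃ (V : Type u) (_ : AddCommGroup V) (_ : Module (ZMod 2) V) (f : 𝐍(A) →* Module.End (ZMod 2) V) (e : G → V), Md A f e := by
  classical
  let _ : CommGroup A := { (inferInstance : Group A) with mul_comm a b := Subtype.ext (isElemAb_le_centralizer h b.2 a a.2) }
  let _ : Module (ZMod 2) (Additive A) := AddCommGroup.zmodModule fun x => Additive.toMul.injective (Subtype.ext (h.2 _ x.toMul.2))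
  refine ⟨Additive A, inferInstance, inferInstance, ⟨⟨fun g => AddMonoidHom.toZModLinearMap 2
    (MonoidHom.toAdditive (cact A g).toMonoidHom), ?_⟩, fun g k => ?_⟩, fun a => if h : a ∈ A then .ofMul ⟨a, h⟩ else 0,
      fun a ha b hb => ?_, fun a ha b hb e => ?_, fun v => ⟨_, v.toMul.2, dif_pos v.toMul.2⟩, fun g a ha => ?_⟩
  · rw [map_one]; rfl
  · dsimp only; rw [map_mul]; rfl
  · rw [dif_pos ha, dif_pos hb, dif_pos (mul_mem ha hb)]; rfl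
  · rw [dif_pos ha, dif_pos hb] at e
    exact congrArg (fun x : Additive A => (x.toMul : G)) e
  · rw [dif_pos ha]; exact dif_pos (conj_mem_of_mem_normalizer g.2 ha)

/-- `g` induces a transvection with centre `c` on `A` -/
structure TV (A : Subgroup G) (g c : G) : Prop where
  nm : g ∈ 𝐍(A)
  mem : c ∈ A
  cm : g * c = c * g
  act : ∀ v ∈ A, g * v = v * g ∨ g * v * g⁻¹ = v * c

namespace Md
variable {V : Type*} [AddCommGroup V] [Module (ZMod 2) V] {f : 𝐍(A) →* Module.End (ZMod 2) V} {e : G → V} (h : Md A f e)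
include h

theorem fix (g : 𝐍(A)) (ha : a ∈ A) : f g (e a) = e a ↔ g * a = a * g := by
  rw [← h.conj g a ha, ← mul_inv_eq_iff_eq_mul]
  exact ⟨h.inj _ (conj_mem_of_mem_normalizer g.2 ha) _ ha, congrArg e⟩

theorem ker (g : 𝐍(A)) : g ∈ f.ker ↔ (g : G) ∈ 𝐂(A) :=
  ⟨fun k a ha => ((h.fix g ha).1 (LinearMap.congr_fun k _)).symm, fun k => LinearMap.ext fun v =>
    let ⟨a, ha, r⟩ := h.srj v; r ▸ (h.fix g ha).2 (k a ha).symm⟩

theorem tv (t : TV A g c) : ∃ φ, Tv f ⟨g, t.nm⟩ (e c) φ ∧ ∀ a ∈ A, (φ (e a) = 0 ↔ g * a = a * g) := by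
  classical
  have k : ∀ v, f ⟨g, t.nm⟩ v = v ∨ f ⟨g, t.nm⟩ v = v + e c := fun v => by
    obtain ⟨a, ha, rfl⟩ := h.srj v
    exact (t.act a ha).imp (h.fix ⟨g, t.nm⟩ ha).2 fun r => by rw [← h.conj _ a ha, ← h.mul a ha c t.mem, ← r]; rfl
  refine ⟨AddMonoidHom.toZModLinearMap 2 (AddMonoidHom.mk' (fun v => if f ⟨g, t.nm⟩ v = v then 0 else 1) fun u v => ?_),
    ⟨fun v => ?_, if_pos ((h.fix ⟨g, t.nm⟩ t.mem).2 t.cm)⟩, fun a ha => Iff.trans ?_ (h.fix ⟨g, t.nm⟩ ha)⟩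
  · by_cases r : f ⟨g, t.nm⟩ u = u <;> by_cases r' : f ⟨g, t.nm⟩ v = v
    · simp [r, r']
    · simp [r, r']
    · simp [r, r']
    · rw [if_neg r, if_neg r', if_pos, oo]
      rw [map_add, (k u).resolve_left r, (k v).resolve_left r', add_add_add_comm, two, add_zero]
  · show _ = v + (if f ⟨g, t.nm⟩ v = v then (0 : ZMod 2) else 1) • e c
    split_ifs with r
    · rw [r, zero_smul, add_zero]
    · rw [one_smul, (k v).resolve_left r]
  · show (if f ⟨g, t.nm⟩ (e a) = e a then (0 : ZMod 2) else 1) = 0 ↔ _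
    simp

end Md

theorem z01 {x : ZMod 2} (h : ¬ x = 0) : x = 1 := by revert x; decide

/-- the configuration on a maximal elementary abelian subgroup -/
structure Cg {ι : Type*} (A : Subgroup G) (τ ρ z w : ι → G) : Prop where
  ea : IsElementaryAbelian 2 A
  tt : ∀ i, TV A (τ i) (z i)
  tr : ∀ i, TV A (ρ i) (w i)
  pz : ∀ i j, τ i * z j = z j * τ i
  pw : ∀ i, τ i * w i ≠ w i * τ i
  pw' : ∀ {i j}, i ≠ j → τ i * w j = w j * τ i
  oz : ∀ i, ρ i * z i ≠ z i * ρ i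
  oz' : ∀ {i j}, i ≠ j → ρ i * z j = z j * ρ i
  pC : IsPGroup 2 𝐂(A)
  rk : BG.pRank 3 𝐍(A) ≤ 2

namespace Cg
variable {G : Type u} [Group G] [Finite G] {A : Subgroup G} {ι : Type*} [DecidableEq ι] {τ ρ z w : ι → G} {i j l r : ι}
  (h : Cg A τ ρ z w)
include h

theorem md : ∃ (V : Type u) (_ : AddCommGroup V) (_ : Module (ZMod 2) V) (f : 𝐍(A) →* Module.End (ZMod 2) V) (e : G → V)
    (ψ ω : ι → V →ₗ[ZMod 2] ZMod 2), Md A f e ∧ Lm f (fun i => ⟨τ i, (h.tt i).nm⟩) (fun i => ⟨ρ i, (h.tr i).nm⟩)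
      (fun i => e (z i)) (fun i => e (w i)) ψ ω ∧ IsPGroup 2 f.ker ∧ ¬ 3 ≤ BG.pRank 3 (⊤ : Subgroup 𝐍(A)) ∧
        ∀ i j, (ω i (e (w j)) = 0 ↔ ρ i * w j = w j * ρ i) := by
  obtain ⟨V, _, _, f, e, d⟩ := exists_md h.ea
  choose ψ a1 a2 using fun i => d.tv (h.tt i)
  choose ω b1 b2 using fun i => d.tv (h.tr i)
  refine ⟨V, _, _, f, e, ψ, ω, d, ⟨a1, b1, fun i j => (a2 i _ (h.tt j).mem).2 (h.pz i j),
    fun i => z01 (mt (a2 i _ (h.tr i).mem).1 (h.pw i)), fun n => (a2 _ _ (h.tr _).mem).2 (h.pw' n),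
    fun i => z01 (mt (b2 i _ (h.tt i).mem).1 (h.oz i)), fun n => (b2 _ _ (h.tt _).mem).2 (h.oz' n)⟩, ?_, ?_,
    fun i j => b2 i _ (h.tr j).mem⟩
  · exact (h.pC.comap_subtype (K := 𝐍(A))).to_le fun g hg => (d.ker g).1 hg
  · rw [BG.pRank_coe]; have := h.rk; omega

theorem theta (n : i ≠ j) (e : ρ i * w j ≠ w j * ρ i) (e' : ρ j * w i = w i * ρ j) :
    ∃ θ ∈ 𝐍(A), (∀ k, θ * τ k * θ⁻¹ * (τ k)⁻¹ ∈ 𝐂(A)) ∧ θ * w j * θ⁻¹ = w j * z i := by
  obtain ⟨V, _, _, f, ε, ψ, ω, d, m, -, -, c⟩ := h.md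
  obtain ⟨θ, t⟩ := m.theta n (z01 (mt (c _ _).1 e)) ((c _ _).2 e')
  refine ⟨θ, θ.2, fun k => (d.ker _).1 ((t.c00 (m.tt k) (m.pz ..) (m.pz ..)).ker (m.tt k)), d.inj _
    (conj_mem_of_mem_normalizer θ.2 (h.tr j).mem) _ (mul_mem (h.tr j).mem (h.tt i).mem) ?_⟩
  rw [d.mul _ (h.tr j).mem _ (h.tt i).mem]
  exact (d.conj θ _ (h.tr j).mem).trans ((t.act _).trans (by rw [m.pw j, one_smul]))

theorem sigma (n : i ≠ j) (e : ρ i * w j ≠ w j * ρ i) (e' : ρ j * w i ≠ w i * ρ j) :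
    ∃ σ ∈ 𝐍(A), ∀ k, σ * τ k * σ⁻¹ * (τ (Equiv.swap i j k))⁻¹ ∈ 𝐂(A) := by
  obtain ⟨V, _, _, f, ε, ψ, ω, d, m, -, -, c⟩ := h.md
  obtain ⟨σ, t⟩ := m.sigma n (z01 (mt (c _ _).1 e)) (z01 (mt (c _ _).1 e'))
  exact ⟨σ, σ.2, fun k => (d.ker _).1 ((t k).ker (m.tt _))⟩

variable (s : ∀ i j, i ≠ j → ρ i * w j = w j * ρ i → ρ j * w i = w i * ρ j) (ij : i ≠ j) (il : i ≠ l) (jl : j ≠ l)
include s ij il jl

theorem n3 (e1 : ρ i * w j = w j * ρ i) (e2 : ρ i * w l = w l * ρ i) (e3 : ρ j * w l = w l * ρ j) : False := by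
  obtain ⟨V, _, _, f, ε, ψ, ω, d, m, p, q, c⟩ := h.md
  exact q (m.n3 p ij il jl ((c _ _).2 e1) ((c _ _).2 (s _ _ ij e1)) ((c _ _).2 e2) ((c _ _).2 (s _ _ il e2)) ((c _ _).2 e3)
    ((c _ _).2 (s _ _ jl e3)))

variable (ir : i ≠ r) (jr : j ≠ r) (lr : l ≠ r) (e1 : ρ i * w j ≠ w j * ρ i) (e2 : ρ i * w l ≠ w l * ρ i)
  (e3 : ρ j * w l ≠ w l * ρ j)
include ir jr lr e1 e2 e3

theorem k31 (f1 : ρ i * w r = w r * ρ i) (f2 : ρ j * w r = w r * ρ j) (f3 : ρ l * w r = w r * ρ l) : False := by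
  obtain ⟨V, _, _, f, ε, ψ, ω, d, m, p, q, c⟩ := h.md
  have a : ∀ {i j}, ρ i * w j ≠ w j * ρ i → ω i (ε (w j)) = 1 := fun e => z01 (mt (c _ _).1 e)
  exact q (m.k31 p ij il jl ir jr lr (a e1) (a (mt (s _ _ ij.symm) e1)) (a e2) (a (mt (s _ _ il.symm) e2)) (a e3)
    (a (mt (s _ _ jl.symm) e3)) ((c _ _).2 f1) ((c _ _).2 (s _ _ ir f1)) ((c _ _).2 f2) ((c _ _).2 (s _ _ jr f2)) ((c _ _).2 f3)
    ((c _ _).2 (s _ _ lr f3)))

theorem k4 (f1 : ρ i * w r ≠ w r * ρ i) (f2 : ρ j * w r ≠ w r * ρ j) (f3 : ρ l * w r ≠ w r * ρ l) : False := by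
  obtain ⟨V, _, _, f, ε, ψ, ω, d, m, p, q, c⟩ := h.md
  have a : ∀ {i j}, ρ i * w j ≠ w j * ρ i → ω i (ε (w j)) = 1 := fun e => z01 (mt (c _ _).1 e)
  exact q (m.k4 p ij il jl ir jr lr (a e1) (a (mt (s _ _ ij.symm) e1)) (a e2) (a (mt (s _ _ il.symm) e2)) (a e3)
    (a (mt (s _ _ jl.symm) e3)) (a f1) (a (mt (s _ _ ir.symm) f1)) (a f2) (a (mt (s _ _ jr.symm) f2)) (a f3)
    (a (mt (s _ _ lr.symm) f3)))

end Cg

end CF.Qu.E3
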